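import Mathlib
import Cfsg.Prelude.Def_GeometricClasses
import Cfsg.Prelude.Def_ClassicalGeometry

/-!
# S5977 (team project OFX): package interface

`PΩ⁺_{2d}(q)`, `q` odd, `d ≥ 4`, and the subgroup `N(K)` of type `O_d(q²)` (`K` a field
subalgebra of degree 2, self-adjoint for the polar form): every element of prime order `r`
(with `r` dividing the index) is `Ω`-conjugate into `N(K)` iff `r = 2`.

Every `Pkg...` below is a `Prop`; a package is delivered as a theorem whose type is that `Prop`.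
Notation: `Q = Cfsg.quadFormPlus d F` (`Q v = ∑ i, v (inl i) * v (inr i)`),
`B = QuadraticMap.polar Q`, `q = Fintype.card F` (odd), `a` a non-square of `F`,
`Rf d v = Cfsg.reflectionMatrix Q v`.
-/

set_option autoImplicit false

namespace Cfsg.Agent.Lib.Helper95.OFX

open Matrix

universe u

/-- The index type of the orthogonal space of dimension `2 d`. -/
abbrev OI (d : ℕ) : Type := Fin d ⊕ Fin d

/-- `α` is self-adjoint for the polar form of `quadFormPlus` and `α * α = a`. -/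
def IsAlphaO (d : ℕ) {F : Type u} [Field F] (a : F) (α : Matrix (OI d) (OI d) F) : Prop :=
  α * α = a • (1 : Matrix (OI d) (OI d) F) ∧
    ∀ u v : OI d → F, QuadraticMap.polar (Cfsg.quadFormPlus d F) (α *ᵥ u) v =
      QuadraticMap.polar (Cfsg.quadFormPlus d F) u (α *ᵥ v)

/-- The standard model of such an `α`: `e_j ↦ f_j`, `f_j ↦ a e_j`. -/
def alpha0 (d : ℕ) {F : Type u} [Field F] (a : F) : Matrix (OI d) (OI d) F :=
  Matrix.fromBlocks 0 (a • 1) 1 0

/-- `x` commutes or anticommutes with `α`. -/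
def PM {d : ℕ} {F : Type u} [Field F] (x α : Matrix (OI d) (OI d) F) : Prop :=
  x * α = α * x ∨ x * α = -(α * x)

/-- The description of `K` as `F + F α`. -/
def KIs {d : ℕ} {F : Type u} [Field F] (K : Subalgebra F (Matrix (OI d) (OI d) F))
    (α : Matrix (OI d) (OI d) F) : Prop :=
  ∀ k : Matrix (OI d) (OI d) F, k ∈ K ↔ ∃ x y : F, k = x • (1 : Matrix (OI d) (OI d) F) + y • α

/-- The reflection matrix of the plus form. -/
abbrev Rf (d : ℕ) {F : Type u} [Field F] (v : OI d → F) : Matrix (OI d) (OI d) F :=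
  Cfsg.reflectionMatrix (Cfsg.quadFormPlus d F) v

/-! ## Structure of `K` and of its normalizer -/

/-- [STRUCT] `K = F + F α` with `α` self-adjoint, `α² = a` a non-square. -/
def PkgStruct : Prop :=
  ∀ {F : Type u} [Field F] [Fintype F], Odd (Fintype.card F) → ∀ (d : ℕ)
    (K : Subalgebra F (Matrix (OI d) (OI d) F)), Cfsg.Geo.IsFieldSubalgebra 2 K →
    Cfsg.Geo.IsSelfAdjointFor (QuadraticMap.polar (Cfsg.quadFormPlus d F)) K →
    ∃ (a : F) (α : Matrix (OI d) (OI d) F), ¬ IsSquare a ∧ IsAlphaO d a α ∧ KIs K α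

/-- [NORM] `g` normalizes `K` iff `g α = ± α g`. -/
def PkgNorm : Prop :=
  ∀ {F : Type u} [Field F] [Fintype F], Odd (Fintype.card F) → ∀ (d : ℕ)
    (K : Subalgebra F (Matrix (OI d) (OI d) F)) (a : F) (α : Matrix (OI d) (OI d) F),
    ¬ IsSquare a → α * α = a • (1 : Matrix (OI d) (OI d) F) → KIs K α →
    ∀ g : GL (OI d) F,
      (g ∈ Cfsg.Geo.subalgebraNormalizer K ↔ PM (g : Matrix (OI d) (OI d) F) α)

/-- [ZPM] an isometry with scalar square has square `± 1`. -/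
def PkgZPM : Prop :=
  ∀ {F : Type u} [Field F] (d : ℕ), 1 ≤ d → ∀ (x : GL (OI d) F),
    x ∈ Cfsg.isometryGroup F (Cfsg.quadFormPlus d F) → ∀ z : F,
    (x : Matrix (OI d) (OI d) F) * (x : Matrix (OI d) (OI d) F) =
      z • (1 : Matrix (OI d) (OI d) F) → z = 1 ∨ z = -1

/-! ## Normal forms -/

/-- [PEELO] a `K`-orthogonal frame: `B (w j) (w k) = 0 = B (α w j) (w k)` for `j ≠ k`, all
frame vectors non-isotropic over `K`, all but the last normalised to
`(B (w j) (w j), B (α w j) (w j)) = (0, 1)`. -/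
def PkgPeelO : Prop :=
  ∀ {F : Type u} [Field F] [Fintype F], Odd (Fintype.card F) → ∀ (d : ℕ) (a : F)
    (α : Matrix (OI d) (OI d) F), ¬ IsSquare a → IsAlphaO d a α →
    ∃ w : Fin d → (OI d → F),
      (∀ j k, j ≠ k → QuadraticMap.polar (Cfsg.quadFormPlus d F) (w j) (w k) = 0 ∧
        QuadraticMap.polar (Cfsg.quadFormPlus d F) (α *ᵥ w j) (w k) = 0) ∧
      (∀ j, QuadraticMap.polar (Cfsg.quadFormPlus d F) (w j) (w j) ≠ 0 ∨
        QuadraticMap.polar (Cfsg.quadFormPlus d F) (α *ᵥ w j) (w j) ≠ 0) ∧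
      (∀ j : Fin d, (j : ℕ) + 1 < d →
        QuadraticMap.polar (Cfsg.quadFormPlus d F) (w j) (w j) = 0 ∧
        QuadraticMap.polar (Cfsg.quadFormPlus d F) (α *ᵥ w j) (w j) = 1)

/-- Every `α` is conjugate to the standard model under the isometry group. -/
def NF : Prop :=
  ∀ {F : Type u} [Field F] [Fintype F], Odd (Fintype.card F) → ∀ (d : ℕ) (a : F)
    (α : Matrix (OI d) (OI d) F), ¬ IsSquare a → IsAlphaO d a α →
    ∃ g : GL (OI d) F, g ∈ Cfsg.isometryGroup F (Cfsg.quadFormPlus d F) ∧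
      α * (g : Matrix (OI d) (OI d) F) = (g : Matrix (OI d) (OI d) F) * alpha0 d a

/-- [NF] -/
def PkgNF : Prop := PkgPeelO.{u} → NF.{u}

/-! ## `r = 2` -/

/-- The conclusion of the two [TWIST] packages: an `α'` with `x α' = ± α' x` which keeps this
property after conjugation by `R_u`, `R_u' R_u`, `R_u'`, where `Q u * Q u'` is a non-square. -/
def Twisted (d : ℕ) {F : Type u} [Field F] (a : F) (x : Matrix (OI d) (OI d) F) : Prop :=
  ∃ (α' : Matrix (OI d) (OI d) F) (u u' : OI d → F), IsAlphaO d a α' ∧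
    Cfsg.quadFormPlus d F u ≠ 0 ∧ Cfsg.quadFormPlus d F u' ≠ 0 ∧
    ¬ IsSquare (Cfsg.quadFormPlus d F u * Cfsg.quadFormPlus d F u') ∧
    PM x α' ∧ PM x (Rf d u * α' * Rf d u) ∧
    PM x (Rf d u' * Rf d u * α' * (Rf d u * Rf d u')) ∧ PM x (Rf d u' * α' * Rf d u')

/-- [TWISTP] involutions of `Ω`. -/
def PkgTwistP : Prop :=
  ∀ {F : Type u} [Field F] [Fintype F], Odd (Fintype.card F) → ∀ (d : ℕ), 1 ≤ d → ∀ (a : F),
    ¬ IsSquare a → ∀ x : GL (OI d) F, x ∈ Cfsg.Geo.omegaGL (Cfsg.quadFormPlus d F) →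
      (x : Matrix (OI d) (OI d) F) * (x : Matrix (OI d) (OI d) F) = 1 →
      Twisted d a (x : Matrix (OI d) (OI d) F)

/-- [TWISTM] isometries with `x² = -1`. -/
def PkgTwistM : Prop :=
  ∀ {F : Type u} [Field F] [Fintype F], Odd (Fintype.card F) → ∀ (d : ℕ), 1 ≤ d → ∀ (a : F),
    ¬ IsSquare a → ∀ x : GL (OI d) F, x ∈ Cfsg.isometryGroup F (Cfsg.quadFormPlus d F) →
      (x : Matrix (OI d) (OI d) F) * (x : Matrix (OI d) (OI d) F) = -1 →
      Twisted d a (x : Matrix (OI d) (OI d) F)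

/-- [SPIN] `1, R_u, R_u' R_u, R_u'` represent the cosets of `Ω` in the isometry group. -/
def PkgSpin : Prop :=
  ∀ {F : Type u} [Field F] [Fintype F], Odd (Fintype.card F) → ∀ (d : ℕ) (h : GL (OI d) F),
    h ∈ Cfsg.isometryGroup F (Cfsg.quadFormPlus d F) → ∀ u u' : OI d → F,
    Cfsg.quadFormPlus d F u ≠ 0 → Cfsg.quadFormPlus d F u' ≠ 0 →
    ¬ IsSquare (Cfsg.quadFormPlus d F u * Cfsg.quadFormPlus d F u') →
    ∃ (g : GL (OI d) F) (M M' : Matrix (OI d) (OI d) F),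
      g ∈ Cfsg.Geo.omegaGL (Cfsg.quadFormPlus d F) ∧ M * M' = 1 ∧
      (g : Matrix (OI d) (OI d) F) = M * (h : Matrix (OI d) (OI d) F) ∧
      ((M = 1 ∧ M' = 1) ∨ (M = Rf d u ∧ M' = Rf d u) ∨
        (M = Rf d u' * Rf d u ∧ M' = Rf d u * Rf d u') ∨ (M = Rf d u' ∧ M' = Rf d u'))

/-! ## `r` odd -/

/-- [MOD4] an isometry of odd order with a conjugate normalizing `α` has `4 ∣ rank (x - 1)`. -/
def PkgMod4 : Prop :=
  ∀ {F : Type u} [Field F] [Fintype F], Odd (Fintype.card F) → ∀ (d : ℕ) (a : F)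
    (α : Matrix (OI d) (OI d) F), ¬ IsSquare a → IsAlphaO d a α →
    ∀ x g : GL (OI d) F, x ∈ Cfsg.isometryGroup F (Cfsg.quadFormPlus d F) →
      g ∈ Cfsg.isometryGroup F (Cfsg.quadFormPlus d F) → ∀ r : ℕ, Odd r →
      (x : Matrix (OI d) (OI d) F) ^ r = 1 →
      PM ((g⁻¹ * x * g : GL (OI d) F) : Matrix (OI d) (OI d) F) α →
      4 ∣ ((x : Matrix (OI d) (OI d) F) - 1).rank

/-- An element of `Ω⁺_{2d}(F)` with `x ^ r = 1`, not scalar, with `rank (x - 1)` not divisible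
by `4`. -/
def Derang (d : ℕ) (F : Type u) [Field F] (r : ℕ) : Prop :=
  ∃ x : GL (OI d) F, x ∈ Cfsg.Geo.omegaGL (Cfsg.quadFormPlus d F) ∧
    (x : Matrix (OI d) (OI d) F) ^ r = 1 ∧
    (∀ z : F, (x : Matrix (OI d) (OI d) F) ≠ z • (1 : Matrix (OI d) (OI d) F)) ∧
    ¬ 4 ∣ ((x : Matrix (OI d) (OI d) F) - 1).rank

/-- [DERP] `r = p`: a Siegel element (`rank (x - 1) = 2`). -/
def PkgDerP : Prop :=
  ∀ {F : Type u} [Field F] [Fintype F] {p : ℕ} [Fact p.Prime] [CharP F p],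
    Odd (Fintype.card F) → ∀ (d : ℕ), 2 ≤ d → Derang d F p

/-- [DERODD] `r` odd, `r ≠ p`, the order `i` of `q` mod `r` odd and `≤ d`
(`rank (x - 1) = 2 i`). -/
def PkgDerOdd : Prop :=
  ∀ {F : Type u} [Field F] [Fintype F] {p : ℕ} [Fact p.Prime] [CharP F p],
    Odd (Fintype.card F) → ∀ (d r : ℕ), r.Prime → r ≠ 2 → r ≠ p →
    Odd (orderOf ((Fintype.card F : ℕ) : ZMod r)) →
    orderOf ((Fintype.card F : ℕ) : ZMod r) ≤ d → Derang d F r

/-- [DEREVEN] `r` odd, `r ≠ p`, the order `i` of `q` mod `r` is `2 m` with `m` odd and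
`m + 1 ≤ d` (`rank (x - 1) = 2 m`). -/
def PkgDerEven : Prop :=
  ∀ {F : Type u} [Field F] [Fintype F] {p : ℕ} [Fact p.Prime] [CharP F p],
    Odd (Fintype.card F) → ∀ (d r : ℕ), r.Prime → r ≠ 2 → r ≠ p →
    orderOf ((Fintype.card F : ℕ) : ZMod r) % 4 = 2 →
    orderOf ((Fintype.card F : ℕ) : ZMod r) / 2 + 1 ≤ d → Derang d F r

/-! ## The index -/

/-- The order of `O⁺_{2d}(q)`. -/
def oPlusOrd (q d : ℕ) : ℕ :=
  2 * q ^ (d * (d - 1)) * (q ^ d - 1) * ∏ j ∈ Finset.range (d - 1), (q ^ (2 * (j + 1)) - 1)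

/-- The order of `O⁺_d(q²)` (`d` even), of `O_d(q²)` (`d` odd). -/
def oKOrd (q d : ℕ) : ℕ :=
  if Even d then
    2 * (q ^ 2) ^ ((d / 2) * (d / 2 - 1)) * ((q ^ 2) ^ (d / 2) - 1) *
      ∏ j ∈ Finset.range (d / 2 - 1), ((q ^ 2) ^ (2 * (j + 1)) - 1)
  else
    2 * (q ^ 2) ^ ((d / 2) ^ 2) * ∏ j ∈ Finset.range (d / 2), ((q ^ 2) ^ (2 * (j + 1)) - 1)

/-- [KSUB] a subgroup of the centralizer in the isometry group of some `α₁` (for instance
`alpha0 d a`), of the order of the orthogonal group of the dot product on `F(√a)^d`. -/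
def PkgKSub : Prop :=
  ∀ {F : Type u} [Field F] [Fintype F], Odd (Fintype.card F) → ∀ (d : ℕ), 1 ≤ d → ∀ (a : F),
    ¬ IsSquare a → ∃ (α₁ : Matrix (OI d) (OI d) F) (S : Subgroup (GL (OI d) F)),
      IsAlphaO d a α₁ ∧ S ≤ Cfsg.isometryGroup F (Cfsg.quadFormPlus d F) ∧
      (∀ g ∈ S, (g : Matrix (OI d) (OI d) F) * α₁ = α₁ * (g : Matrix (OI d) (OI d) F)) ∧
      Nat.card S = oKOrd (Fintype.card F) d

/-- If an odd prime `r` divides the index of `N(K) ∩ Ω` in `Ω`, then the `r`-part of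
`|O_d(q²)|` is smaller than that of `|O⁺_{2d}(q)|`. -/
def Idx : Prop :=
  ∀ {F : Type u} [Field F] [Fintype F], Odd (Fintype.card F) → ∀ (d : ℕ), 1 ≤ d →
    ∀ (K : Subalgebra F (Matrix (OI d) (OI d) F)) (a : F) (α : Matrix (OI d) (OI d) F),
    ¬ IsSquare a → IsAlphaO d a α → KIs K α → ∀ r : ℕ, r.Prime → r ≠ 2 →
    r ∣ (Cfsg.Geo.subalgebraNormalizer K).relIndex
      (Cfsg.Geo.omegaGL (Cfsg.quadFormPlus d F)) →
    padicValNat r (oKOrd (Fintype.card F) d) < padicValNat r (oPlusOrd (Fintype.card F) d)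

/-- [IDX] -/
def PkgIdx : Prop := PkgNorm.{u} → NF.{u} → PkgKSub.{u} → Idx.{u}

/-- [ARITH] -/
def PkgArith : Prop :=
  ∀ (q r d : ℕ), r.Prime → r ≠ 2 → ¬ r ∣ q → Odd q → 1 < q → 1 ≤ d →
    padicValNat r (oKOrd q d) < padicValNat r (oPlusOrd q d) →
    (Odd (orderOf (q : ZMod r)) ∧ orderOf (q : ZMod r) ≤ d) ∨
      (orderOf (q : ZMod r) % 4 = 2 ∧ orderOf (q : ZMod r) / 2 + 1 ≤ d)

end Cfsg.Agent.Lib.Helper95.OFX
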