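import Mathlib
import Cfsg.Agent.Lib.Helper95.OFX.Defs

/-!
# S5977 (team project OFX): assembly of the packages
-/

set_option autoImplicit false

namespace Cfsg.Agent.Lib.Helper95.OFX

open Matrix

universe u

section Asm

variable {F : Type u} [Field F] {d : ℕ}

theorem gl_inv_mul (g : GL (OI d) F) :
    ((g⁻¹ : GL (OI d) F) : Matrix (OI d) (OI d) F) * (g : Matrix (OI d) (OI d) F) = 1 := by
  rw [← Units.val_mul, inv_mul_cancel, Units.val_one]

theorem gl_mul_inv (g : GL (OI d) F) :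
    (g : Matrix (OI d) (OI d) F) * ((g⁻¹ : GL (OI d) F) : Matrix (OI d) (OI d) F) = 1 := by
  rw [← Units.val_mul, mul_inv_cancel, Units.val_one]

theorem omega_le {x : GL (OI d) F} (hx : x ∈ Cfsg.Geo.omegaGL (Cfsg.quadFormPlus d F)) :
    x ∈ Cfsg.isometryGroup F (Cfsg.quadFormPlus d F) := by
  unfold Cfsg.Geo.omegaGL at hx
  obtain ⟨y, _, rfl⟩ := Subgroup.mem_map.mp hx
  exact y.2

/-- Conjugating by `g = M * h`. -/
theorem conj_eq (g h : GL (OI d) F) (M M' : Matrix (OI d) (OI d) F) (hM : M * M' = 1)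
    (hg : (g : Matrix (OI d) (OI d) F) = M * (h : Matrix (OI d) (OI d) F))
    (α α' : Matrix (OI d) (OI d) F)
    (hα' : (h : Matrix (OI d) (OI d) F) * α *
      ((h⁻¹ : GL (OI d) F) : Matrix (OI d) (OI d) F) = α') :
    (g : Matrix (OI d) (OI d) F) * α * ((g⁻¹ : GL (OI d) F) : Matrix (OI d) (OI d) F) =
      M * α' * M' := by
  have hinv : ((g⁻¹ : GL (OI d) F) : Matrix (OI d) (OI d) F) =
      ((h⁻¹ : GL (OI d) F) : Matrix (OI d) (OI d) F) * M' := by
    have h1 : (g : Matrix (OI d) (OI d) F) *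
        (((h⁻¹ : GL (OI d) F) : Matrix (OI d) (OI d) F) * M') = 1 := by
      rw [hg, Matrix.mul_assoc, ← Matrix.mul_assoc (h : Matrix (OI d) (OI d) F), gl_mul_inv,
        Matrix.one_mul, hM]
    exact Units.inv_eq_of_mul_eq_one_right h1
  rw [hinv, hg, ← hα']
  simp only [Matrix.mul_assoc]

/-- Moving a conjugation from `x` to `α`. -/
theorem pm_conj (x g : GL (OI d) F) (α : Matrix (OI d) (OI d) F) :
    PM ((g⁻¹ * x * g : GL (OI d) F) : Matrix (OI d) (OI d) F) α ↔
      PM (x : Matrix (OI d) (OI d) F) ((g : Matrix (OI d) (OI d) F) * α *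
        ((g⁻¹ : GL (OI d) F) : Matrix (OI d) (OI d) F)) := by
  obtain ⟨G, hG⟩ : ∃ G : Matrix (OI d) (OI d) F, G = (g : Matrix (OI d) (OI d) F) := ⟨_, rfl⟩
  obtain ⟨G', hG'⟩ : ∃ G' : Matrix (OI d) (OI d) F,
      G' = ((g⁻¹ : GL (OI d) F) : Matrix (OI d) (OI d) F) := ⟨_, rfl⟩
  obtain ⟨X, hX⟩ : ∃ X : Matrix (OI d) (OI d) F, X = (x : Matrix (OI d) (OI d) F) := ⟨_, rfl⟩
  have h1 : G' * G = 1 := by rw [hG, hG']; exact gl_inv_mul g
  have h2 : G * G' = 1 := by rw [hG, hG']; exact gl_mul_inv g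
  have hc : ((g⁻¹ * x * g : GL (OI d) F) : Matrix (OI d) (OI d) F) = G' * X * G := by
    rw [Units.val_mul, Units.val_mul, hG, hG', hX]
  rw [hc, ← hG, ← hG', ← hX]
  unfold PM
  have e1 : G' * X * G * α = α * (G' * X * G) ↔ X * (G * α * G') = G * α * G' * X := by
    constructor
    · intro h
      calc X * (G * α * G') = G * (G' * X * G * α) * G' := by
            simp only [Matrix.mul_assoc]
            rw [← Matrix.mul_assoc G G', h2, Matrix.one_mul]
        _ = G * (α * (G' * X * G)) * G' := by rw [h]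
        _ = G * α * G' * X := by
            simp only [Matrix.mul_assoc]
            rw [h2, Matrix.mul_one]
    · intro h
      calc G' * X * G * α = G' * (X * (G * α * G')) * G := by
            simp only [Matrix.mul_assoc]
            rw [h1, Matrix.mul_one]
        _ = G' * (G * α * G' * X) * G := by rw [h]
        _ = α * (G' * X * G) := by
            simp only [Matrix.mul_assoc]
            rw [← Matrix.mul_assoc G' G, h1, Matrix.one_mul]
  have e2 : G' * X * G * α = -(α * (G' * X * G)) ↔ X * (G * α * G') = -(G * α * G' * X) := by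
    constructor
    · intro h
      calc X * (G * α * G') = G * (G' * X * G * α) * G' := by
            simp only [Matrix.mul_assoc]
            rw [← Matrix.mul_assoc G G', h2, Matrix.one_mul]
        _ = G * (-(α * (G' * X * G))) * G' := by rw [h]
        _ = -(G * α * G' * X) := by
            simp only [Matrix.mul_assoc, Matrix.mul_neg, Matrix.neg_mul]
            rw [h2, Matrix.mul_one]
    · intro h
      calc G' * X * G * α = G' * (X * (G * α * G')) * G := by
            simp only [Matrix.mul_assoc]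
            rw [h1, Matrix.mul_one]
        _ = G' * (-(G * α * G' * X)) * G := by rw [h]
        _ = -(α * (G' * X * G)) := by
            simp only [Matrix.mul_assoc, Matrix.mul_neg, Matrix.neg_mul]
            rw [← Matrix.mul_assoc G' G, h1, Matrix.one_mul]
  rw [e1, e2]

end Asm

/-- The assembly: S5977 from the packages. -/
theorem s5977_of (hS : PkgStruct.{u}) (hN : PkgNorm.{u}) (hZ : PkgZPM.{u}) (hNF : NF.{u})
    (hTP : PkgTwistP.{u}) (hTM : PkgTwistM.{u}) (hSpin : PkgSpin.{u}) (hM4 : PkgMod4.{u})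
    (hDP : PkgDerP.{u}) (hDO : PkgDerOdd.{u}) (hDE : PkgDerEven.{u}) (hIdx : Idx.{u})
    (hAr : PkgArith)
    {F : Type u} [Field F] [Fintype F] {p : ℕ} [Fact p.Prime] [CharP F p] {q : ℕ}
    (hq : Fintype.card F = q)
    (hodd : Odd q) (d : ℕ) (hd : 4 ≤ d)
    (K : Subalgebra F (Matrix (Fin d ⊕ Fin d) (Fin d ⊕ Fin d) F))
    (hK : Cfsg.Geo.IsFieldSubalgebra 2 K)
    (hKf : Cfsg.Geo.IsSelfAdjointFor (QuadraticMap.polar (Cfsg.quadFormPlus d F)) K)
    (r : ℕ) [Fact r.Prime]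
    (hΩ : r ∣ (Cfsg.Geo.subalgebraNormalizer K).relIndex
      (Cfsg.Geo.omegaGL (Cfsg.quadFormPlus d F))) :
    (∀ x ∈ Cfsg.Geo.omegaGL (Cfsg.quadFormPlus d F), (∃ z : F, ((x ^ r : GL (Fin d ⊕ Fin d) F) :
        Matrix (Fin d ⊕ Fin d) (Fin d ⊕ Fin d) F) =
          z • (1 : Matrix (Fin d ⊕ Fin d) (Fin d ⊕ Fin d) F)) →
      (∀ z : F, (x : Matrix (Fin d ⊕ Fin d) (Fin d ⊕ Fin d) F) ≠
        z • (1 : Matrix (Fin d ⊕ Fin d) (Fin d ⊕ Fin d) F)) →
      ∃ g ∈ Cfsg.Geo.omegaGL (Cfsg.quadFormPlus d F),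
        g⁻¹ * x * g ∈ Cfsg.Geo.subalgebraNormalizer K) ↔ r = 2 := by
  classical
  subst hq
  have hd1 : 1 ≤ d := by omega
  have hd2 : 2 ≤ d := by omega
  have hr : r.Prime := Fact.out
  obtain ⟨a, α, ha, hα, hKα⟩ := hS hodd d K hK hKf
  have key : ∀ x g : GL (OI d) F, (g⁻¹ * x * g ∈ Cfsg.Geo.subalgebraNormalizer K ↔
      PM (x : Matrix (OI d) (OI d) F) ((g : Matrix (OI d) (OI d) F) * α *
        ((g⁻¹ : GL (OI d) F) : Matrix (OI d) (OI d) F))) := by
    intro x g
    rw [hN hodd d K a α ha hα.1 hKα]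
    exact pm_conj x g α
  constructor
  · intro hall
    by_contra hr2
    have hrodd : Odd r := hr.odd_of_ne_two hr2
    have fin : Derang d F r → False := by
      rintro ⟨x, hx, hxr, hns, hrank⟩
      obtain ⟨g, hg, hmem⟩ := hall x hx ⟨1, by rw [Units.val_pow_eq_pow_val, hxr, one_smul]⟩ hns
      have hpm := (hN hodd d K a α ha hα.1 hKα (g⁻¹ * x * g)).mp hmem
      exact hrank (hM4 hodd d a α ha hα x g (omega_le hx) (omega_le hg) r hrodd hxr hpm)
    by_cases hrq : r ∣ Fintype.card F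
    · obtain ⟨n, hn⟩ := FiniteField.card F p
      have hrp : r = p := by
        rw [hn.2] at hrq
        exact (Nat.prime_dvd_prime_iff_eq hr hn.1).mp (hr.dvd_of_dvd_pow hrq)
      subst hrp
      exact fin (hDP (F := F) (p := r) hodd d hd2)
    · have hrp : r ≠ p := by
        rintro rfl
        apply hrq
        obtain ⟨n, hn⟩ := FiniteField.card F r
        rw [hn.2]
        exact dvd_pow_self r n.ne_zero
      have hlt := hIdx hodd d hd1 K a α ha hα hKα r hr hr2 hΩ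
      rcases hAr (Fintype.card F) r d hr hr2 hrq hodd Fintype.one_lt_card hd1 hlt with
        ⟨h1, h2⟩ | ⟨h1, h2⟩
      · exact fin (hDO (F := F) (p := p) hodd d r hr hr2 hrp h1 h2)
      · exact fin (hDE (F := F) (p := p) hodd d r hr hr2 hrp h1 h2)
  · rintro rfl x hx ⟨z, hz⟩ _
    rw [Units.val_pow_eq_pow_val, pow_two] at hz
    have hxi := omega_le hx
    obtain ⟨α', u, u', hα', hu, hu', hns', pm1, pm2, pm3, pm4⟩ :
        Twisted d a (x : Matrix (OI d) (OI d) F) := by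
      rcases hZ d hd1 x hxi z hz with rfl | rfl
      · exact hTP hodd d hd1 a ha x hx (by rw [hz, one_smul])
      · exact hTM hodd d hd1 a ha x hxi (by rw [hz, neg_smul, one_smul])
    obtain ⟨g₁, hg₁, e₁⟩ := hNF hodd d a α ha hα
    obtain ⟨g₂, hg₂, e₂⟩ := hNF hodd d a α' ha hα'
    have hh : g₂ * g₁⁻¹ ∈ Cfsg.isometryGroup F (Cfsg.quadFormPlus d F) :=
      Subgroup.mul_mem _ hg₂ (Subgroup.inv_mem _ hg₁)
    have e3 : ((g₂ * g₁⁻¹ : GL (OI d) F) : Matrix (OI d) (OI d) F) * α *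
        (((g₂ * g₁⁻¹)⁻¹ : GL (OI d) F) : Matrix (OI d) (OI d) F) = α' := by
      rw [_root_.mul_inv_rev, inv_inv, Units.val_mul, Units.val_mul]
      calc (g₂ : Matrix (OI d) (OI d) F) * ((g₁⁻¹ : GL (OI d) F) : Matrix (OI d) (OI d) F) * α *
            ((g₁ : Matrix (OI d) (OI d) F) * ((g₂⁻¹ : GL (OI d) F) : Matrix (OI d) (OI d) F))
          = (g₂ : Matrix (OI d) (OI d) F) * ((g₁⁻¹ : GL (OI d) F) : Matrix (OI d) (OI d) F) *
              (α * (g₁ : Matrix (OI d) (OI d) F)) *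
              ((g₂⁻¹ : GL (OI d) F) : Matrix (OI d) (OI d) F) := by
            simp only [Matrix.mul_assoc]
        _ = (g₂ : Matrix (OI d) (OI d) F) * alpha0 d a *
              ((g₂⁻¹ : GL (OI d) F) : Matrix (OI d) (OI d) F) := by
            rw [e₁]
            simp only [Matrix.mul_assoc]
            rw [← Matrix.mul_assoc ((g₁⁻¹ : GL (OI d) F) : Matrix (OI d) (OI d) F),
              gl_inv_mul, Matrix.one_mul]
        _ = α' := by
            rw [← e₂, Matrix.mul_assoc, gl_mul_inv, Matrix.mul_one]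
    obtain ⟨g, M, M', hgΩ, hMM, hgM, hcase⟩ :=
      hSpin hodd d (g₂ * g₁⁻¹) hh u u' hu hu' hns'
    refine ⟨g, hgΩ, ?_⟩
    rw [key x g, conj_eq g (g₂ * g₁⁻¹) M M' hMM hgM α α' e3]
    rcases hcase with ⟨rfl, rfl⟩ | ⟨rfl, rfl⟩ | ⟨rfl, rfl⟩ | ⟨rfl, rfl⟩
    · rw [Matrix.one_mul, Matrix.mul_one]; exact pm1
    · exact pm2
    · exact pm3
    · exact pm4

end Cfsg.Agent.Lib.Helper95.OFX
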